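import Cfsg.Agent.H333.EB.ON
import Cfsg.Agent.KFacts.ON.Aut

/-!
# TEAM EB: the O'Nan group, the row `EvenJ` (helper333)
-/

set_option autoImplicit false

namespace Cfsg.Agent.H333.EB.ON

open Cfsg Subgroup
open Cfsg.Spor (ON)
open Cfsg.Agent.H684.EB

universe u

theorem range_normal {A : Type*} [Group A] : (MulAut.conj : A →* MulAut A).range.Normal := by
  constructor
  rintro _ ⟨a, rfl⟩ α
  refine ⟨α a, ?_⟩
  ext x
  show α a * x * (α a)⁻¹ = α (a * α⁻¹ x * a⁻¹)
  rw [map_mul, map_mul, map_inv, show α (α⁻¹ x) = x from α.apply_symm_apply x]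

/-- squares of automorphisms are inner if the outer automorphism group has order at most 2 -/
theorem sq_inner {A : Type*} [Group A] (h0 : (MulAut.conj : A →* MulAut A).range.index ≠ 0)
    (h : (MulAut.conj : A →* MulAut A).range.index ≤ 2) (α : MulAut A) : ∃ s : A, α ^ 2 = MulAut.conj s := by
  have hn := range_normal (A := A)
  obtain ⟨s, hs⟩ : α ^ 2 ∈ (MulAut.conj : A →* MulAut A).range := by
    rcases (by omega : (MulAut.conj : A →* MulAut A).range.index = 1 ∨
      (MulAut.conj : A →* MulAut A).range.index = 2) with h1 | h1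
    · rw [index_eq_one] at h1
      rw [h1]
      exact mem_top _
    · exact sq_mem_of_index_two h1 α
  exact ⟨s, hs.symm⟩

/-- **The O'Nan group**, `EvenJ`. -/
theorem evenJ_on {S : Type u} [Group S] (h : Cfsg.Spor.IsoON S) : EvenJ S := by
  refine evenJ_of_inner ?_ (evenB_on h)
  obtain ⟨e⟩ := h
  intro α
  have hfin := KFacts.ON.Aut.finite_aut
  let β : MulAut ON := (e.symm.trans α).trans e
  obtain ⟨s, hs⟩ := sq_inner index_ne_zero_of_finite KFacts.ON.Aut.index_le β
  refine ⟨1, e.symm s, fun x => ?_⟩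
  have h1 := DFunLike.congr_fun hs (e x)
  have h2 : (β ^ 2) (e x) = e ((((α : MulAut S)) ^ 2 ^ 1) x) := by
    rw [pow_one, pow_two, pow_two, MulAut.mul_apply, MulAut.mul_apply]
    show e (α (e.symm (e (α (e.symm (e x)))))) = e (α (α x))
    rw [e.symm_apply_apply, e.symm_apply_apply]
  rw [h2] at h1
  apply e.injective
  rw [h1, map_mul, map_mul, map_inv, e.apply_symm_apply]
  rfl

end Cfsg.Agent.H333.EB.ON
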